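/-
A finitely presented group on involutions, with its relators found by machine (helper16).
-/
import Cfsg.Prelude.Def_SporCoxeter

set_option autoImplicit false

namespace Cfsg.Agent.Lib.ToddCox.OPM11

inductive Gen
  | a
  | b
  | c
  | d
  | e
  deriving DecidableEq

abbrev a : FreeGroup Gen := FreeGroup.of Gen.a
abbrev b : FreeGroup Gen := FreeGroup.of Gen.b
abbrev c : FreeGroup Gen := FreeGroup.of Gen.c
abbrev d : FreeGroup Gen := FreeGroup.of Gen.d
abbrev e : FreeGroup Gen := FreeGroup.of Gen.e

def edges : List (Gen × ℕ × Gen) := []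

def extra : List (FreeGroup Gen) := [
  a * a,
  b * b,
  a * b * a * b * a * b * a * b,
  c * c,
  a * c * a * c * a * c,
  a * b * a * b * c * a * b * a * c,
  d * d,
  b * d * b * d * b * d * b * d * b * d,
  a * d * b * c * d,
  e * e,
  b * e * c * d * c * e * b * a,
  a * b * c * e * a * b * e * d * b * a * e ]

end Cfsg.Agent.Lib.ToddCox.OPM11
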