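/-
A finitely presented group on involutions, with its relators found by machine (helper16).
-/
import Cfsg.Prelude.Def_SporCoxeter

set_option autoImplicit false

namespace Cfsg.Agent.Lib.ToddCox.OPO73

inductive Gen
  | a
  | b
  | c
  | d
  | e
  | f
  | g
  | h
  deriving DecidableEq

abbrev a : FreeGroup Gen := FreeGroup.of Gen.a
abbrev b : FreeGroup Gen := FreeGroup.of Gen.b
abbrev c : FreeGroup Gen := FreeGroup.of Gen.c
abbrev d : FreeGroup Gen := FreeGroup.of Gen.d
abbrev e : FreeGroup Gen := FreeGroup.of Gen.e
abbrev f : FreeGroup Gen := FreeGroup.of Gen.f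
abbrev g : FreeGroup Gen := FreeGroup.of Gen.g
abbrev h : FreeGroup Gen := FreeGroup.of Gen.h

def edges : List (Gen × ℕ × Gen) := []

def extra : List (FreeGroup Gen) := [
  a * a,
  b * b,
  a * b * a * b * a * b,
  c * c,
  a * c * a * c,
  b * c * b * c * b * c,
  d * d,
  a * d * a * d * a * d,
  b * d * b * d,
  c * d * c * d,
  e * e,
  a * e * a * e,
  b * e * b * e,
  c * e * c * e,
  d * e * d * e * d * e,
  f * f,
  a * f * a * f * a * f,
  b * f * b * f,
  c * f * c * f,
  d * f * d * f,
  e * f * e * f,
  g * g,
  a * g * a * g,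
  b * g * b * g,
  c * g * c * g,
  d * g * d * g,
  e * g * e * g,
  f * g * f * g * f * g,
  a * f * g * a * b * c * a * d * e * a * f * g * a * b * c * a * d * e * a * f * g * a * b * c * a * d * e * a * f * g * a * b * c * a * d * e * a * f * g * a * b * c * a * d * e * a * f * g * a * b * c * a * d * e * a * f * g * a * b * c * a * d * e * a * f * g * a * b * c * a * d * e * a * f * g * a * b * c * a * d * e * a * f * g * a * b * c * a * d * e,
  h * h,
  a * h * a * h,
  b * h * b * h,
  c * h * c * h * c * h,
  d * h * d * h,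
  e * h * e * h,
  f * h * f * h,
  g * h * g * h,
  g * f * a * b * c * h * d * g * f * a * b * c * h * d * g * f * a * b * c * h * d * g * f * a * b * c * h * d * g * f * a * b * c * h * d * g * f * a * b * c * h * d * g * f * a * b * c * h * d * g * f * a * b * c * h * d * g * f * a * b * c * h * d ]

end Cfsg.Agent.Lib.ToddCox.OPO73
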