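/-
A finitely presented group on involutions, with its relators found by machine (helper16).
-/
import Cfsg.Prelude.Def_SporCoxeter

set_option autoImplicit false

namespace Cfsg.Agent.Lib.ToddCox.OPRU

inductive Gen
  | a
  | b
  | c
  | d
  | e
  | f
  deriving DecidableEq

abbrev a : FreeGroup Gen := FreeGroup.of Gen.a
abbrev b : FreeGroup Gen := FreeGroup.of Gen.b
abbrev c : FreeGroup Gen := FreeGroup.of Gen.c
abbrev d : FreeGroup Gen := FreeGroup.of Gen.d
abbrev e : FreeGroup Gen := FreeGroup.of Gen.e
abbrev f : FreeGroup Gen := FreeGroup.of Gen.f

def edges : List (Gen × ℕ × Gen) := []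

def extra : List (FreeGroup Gen) := [
  a * a,
  b * b,
  a * b * a * b * a * b * a * b * a * b * a * b,
  c * c,
  c * a * c * b * a * b * c * a * c * b * a * b * c * a * c * b * a * b,
  a * c * b * a * c * b * a * c * b * a * c * b * a * c * b,
  a * b * c * b * a * c * a * b * c * b * a * c,
  a * b * c * b * a * b * c * b * a * b * c * b,
  d * d,
  b * d * a * d * a * d * a * b * d * a * d * a * d * a * b * d * a * d * a * d * a,
  b * a * b * c * d * b * c * b * a * b * c * d * b * c * b * a * b * c * d * b * c,
  c * d * a * d * a * b * d * c * d * a * d * a * b * d * c * d * a * d * a * b * d,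
  b * d * a * d * c * b * d * a * d * c * b * d * a * d * c * b * d * a * d * c,
  c * a * d * c * a * b * c * a * d * c * a * b * c * a * d * c * a * b,
  b * d * b * c * b * a * b * d * b * c * b * a * b * d * b * c * b * a,
  e * e,
  a * c * e * b * e * a * c * e * b * e * c * a * e * b * e,
  b * d * e * d * e * d * e * d * e * b * e * b * e * b * e,
  b * a * d * b * e * b * d * a * b * a * d * b * e * b * d * a,
  c * e * b * e * c * b * e * b * e * b * c * e * b * e * c * a,
  c * e * d * b * d * b * d * b * d * e * c * b * e * d * e * b,
  a * b * e * a * b * e * d * b * e * b * a * e * d * b * a * b * c,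
  a * b * e * c * d * e * b * a * e * b * c * b * e * b * c * b * e,
  a * c * d * e * b * e * b * c * e * b * e * a * e * b * e * b * d,
  a * c * e * a * c * e * a * d * c * d * e * c * a * e * c * a * e,
  a * c * e * a * e * d * b * e * c * b * c * e * b * d * e * a * e,
  a * d * a * e * d * a * e * d * e * d * c * e * d * e * a * d * e,
  a * d * b * e * c * d * e * c * e * b * e * c * e * d * c * e * d,
  b * c * b * e * c * e * d * e * c * e * c * e * d * e * d * a * d,
  b * c * b * e * d * e * c * e * c * e * d * e * c * e * d * a * d,
  b * c * d * b * a * e * d * e * c * d * e * b * e * a * b * a * e,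
  b * c * e * c * e * c * b * e * b * e * c * e * d * e * c * b * e,
  f * f,
  a * c * a * c,
  a * d * a * d * a * d * a * d * a * d * a * d * a * d * a * d * a * d * a * d * a * d * a * d,
  a * e * a * e * a * e * a * e * a * e * a * e * a * e * a * e * a * e * a * e * a * e * a * e,
  a * f * a * f,
  b * c * b * c * b * c * b * c,
  b * d * b * d * b * d * b * d * b * d * b * d * b * d * b * d * b * d * b * d * b * d * b * d * b * d,
  b * e * b * e * b * e * b * e * b * e * b * e * b * e * b * e,
  b * f * b * f,
  c * d * c * d,
  c * e * c * e * c * e * c * e * c * e * c * e,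
  c * f * c * f,
  d * e * d * e * d * e * d * e * d * e * d * e * d * e * d * e,
  d * f * d * f * d * f * d * f,
  e * f * e * f * e * f * e * f * e * f * e * f * e * f * e * f * e * f * e * f * e * f * e * f,
  f * d * f * d * c,
  f * c * e * b * e * f * c * e * b * e * f * c * e * b * e,
  f * a * e * b * e * f * a * e * b * e * f * a * e * b * e * f * a * e * b * e,
  f * b * e * b * c * b * e * f * b * e * b * c * b * e * f * b * e * b * c * b * e,
  f * e * c * e * f * e * c * e * f * e * c * e * f * e * c * e * f * e * c * e * f * e * c * e,
  f * b * e * c * d * e * f * b * e * c * d * e * f * b * e * c * d * e * f * b * e * c * d * e,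
  f * a * d * e * d * f * a * d * e * d * f * a * d * e * d * f * a * d * e * d * f * a * d * e * d,
  f * b * c * e * a * e * d * e * c * f * b * c * e * a * e * d * e * c * f * b * c * e * a * e * d * e * c,
  f * a * b * a * b * e * b * f * a * b * a * b * e * b * f * a * b * a * b * e * b * f * a * b * a * b * e * b,
  f * a * e * d * e * f * a * e * d * e * f * a * e * d * e * f * a * e * d * e * f * a * e * d * e * f * a * e * d * e,
  f * b * c * e * c * f * b * c * e * c * f * b * c * e * c * f * b * c * e * c * f * b * c * e * c * f * b * c * e * c,
  f * c * e * d * e * d * e * f * c * e * d * e * d * e * f * c * e * d * e * d * e * f * c * e * d * e * d * e * f * c * e * d * e * d * e,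
  f * d * a * d * e * a * e * f * d * a * d * e * a * e * f * d * a * d * e * a * e * f * d * a * d * e * a * e * f * d * a * d * e * a * e,
  f * a * b * e * d * e * a * e * f * a * b * e * d * e * a * e * f * a * b * e * d * e * a * e * f * a * b * e * d * e * a * e * f * a * b * e * d * e * a * e,
  f * b * e * a * c * e * a * b * e * f * b * e * a * c * e * a * b * e * f * b * e * a * c * e * a * b * e * f * b * e * a * c * e * a * b * e * f * b * e * a * c * e * a * b * e,
  f * b * e * b * a * e * a * c * e * f * b * e * b * a * e * a * c * e * f * b * e * b * a * e * a * c * e * f * b * e * b * a * e * a * c * e * f * b * e * b * a * e * a * c * e,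
  f * b * e * a * b * a * d * e * f * b * e * a * b * a * d * e * f * b * e * a * b * a * d * e * f * b * e * a * b * a * d * e * f * b * e * a * b * a * d * e * f * b * e * a * b * a * d * e,
  f * b * e * d * a * b * a * e * f * b * e * d * a * b * a * e * f * b * e * d * a * b * a * e * f * b * e * d * a * b * a * e * f * b * e * d * a * b * a * e * f * b * e * d * a * b * a * e,
  f * b * c * e * c * e * c * d * e * f * b * c * e * c * e * c * d * e * f * b * c * e * c * e * c * d * e * f * b * c * e * c * e * c * d * e * f * b * c * e * c * e * c * d * e * f * b * c * e * c * e * c * d * e ]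

end Cfsg.Agent.Lib.ToddCox.OPRU
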